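import Cfsg.Prelude.Def_Transfer
import Cfsg.Agent.PGroup.RankThree
import Mathlib.GroupTheory.Nilpotent

/-!
`p` odd: a `p`-group with an elementary abelian subgroup of order `p^4` has a normal one
(Konvisser, Jonah).

Let `U` be normal elementary of order `p^2`, `W ⊇ U` maximal normal elementary abelian, necessarily
of order `p^3`, and look at the elementary abelian subgroups of order at least `p^4` of `C(U)` over
`U`: two of them normalising one another are equal, so each is normal.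
-/

set_option autoImplicit false

open scoped commutatorElement

namespace CfsgLib.PGroup.RankFour

variable {P : Type*} [Group P] [Finite P] {p : ℕ} [Fact p.Prime]

theorem exists_card_pow (hP : IsPGroup p P) (H : Subgroup P) : ∃ k, Nat.card H = p ^ k :=
  IsPGroup.iff_card.1 (hP.to_subgroup H)

theorem elementary_sup {A B : Subgroup P} (hA : Cfsg.IsElementaryAbelian p A)
    (hB : Cfsg.IsElementaryAbelian p B) (h : ∀ a ∈ A, ∀ b ∈ B, a * b = b * a) :
    Cfsg.IsElementaryAbelian p (A ⊔ B) := by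
  have hAB : A ≤ Subgroup.centralizer (B : Set P) := fun a ha =>
    Subgroup.mem_centralizer_iff.2 fun b hb => (h a ha b hb).symm
  have hAA : A ≤ Subgroup.centralizer (A : Set P) := fun a ha =>
    Subgroup.mem_centralizer_iff.2 fun b hb =>
      congrArg Subtype.val (hA.1.1.comm ⟨b, hb⟩ ⟨a, ha⟩)
  have hBB : B ≤ Subgroup.centralizer (B : Set P) := fun a ha =>
    Subgroup.mem_centralizer_iff.2 fun b hb =>
      congrArg Subtype.val (hB.1.1.comm ⟨b, hb⟩ ⟨a, ha⟩)
  have hA' : A ⊔ B ≤ Subgroup.centralizer (A : Set P) :=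
    sup_le hAA (Subgroup.le_centralizer_iff.1 hAB)
  have hB' : A ⊔ B ≤ Subgroup.centralizer (B : Set P) := sup_le hAB hBB
  have hc : A ⊔ B ≤ Subgroup.centralizer ((A ⊔ B : Subgroup P) : Set P) :=
    Subgroup.le_centralizer_iff.1
      (sup_le (Subgroup.le_centralizer_iff.1 hA') (Subgroup.le_centralizer_iff.1 hB'))
  have hcomm : ∀ x ∈ A ⊔ B, ∀ y ∈ A ⊔ B, x * y = y * x := fun x hx y hy =>
    (Subgroup.mem_centralizer_iff.1 (hc hx) y hy).symm
  refine ⟨IsMulCommutative.of_comm fun x y => Subtype.ext (hcomm _ x.2 _ y.2), ?_⟩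
  let S : Subgroup P :=
    { carrier := {x | x ∈ A ⊔ B ∧ x ^ p = 1}
      mul_mem' := fun {x y} hx hy => ⟨mul_mem hx.1 hy.1, by
        rw [Commute.mul_pow (hcomm _ hx.1 _ hy.1), hx.2, hy.2, one_mul]⟩
      one_mem' := ⟨one_mem _, one_pow _⟩
      inv_mem' := fun {x} hx => ⟨inv_mem hx.1, by rw [inv_pow, hx.2, inv_one]⟩ }
  have hS : A ⊔ B ≤ S := sup_le (fun a ha => ⟨le_sup_left (b := B) ha, hA.2 a ha⟩)
    fun b hb => ⟨le_sup_right (a := A) hb, hB.2 b hb⟩
  exact fun x hx => (hS hx).2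

theorem card_le_mul_inf (M E : Subgroup P) [M.Normal] (hM : M.index ∣ p) :
    Nat.card E ≤ p * Nat.card (E ⊓ M : Subgroup P) := by
  have h1 : (M.subgroupOf E).index ∣ p := (Subgroup.relIndex_dvd_index_of_normal M E).trans hM
  have h2 := (M.subgroupOf E).card_mul_index
  have h3 : Nat.card (M.subgroupOf E) = Nat.card (E ⊓ M : Subgroup P) := by
    rw [← Nat.card_congr
      (Subgroup.subgroupOfEquivOfLe (inf_le_left : E ⊓ M ≤ E)).toEquiv, Subgroup.inf_subgroupOf_left]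
  rw [h3] at h2
  rw [← h2, mul_comm p]
  exact Nat.mul_le_mul_left _ (Nat.le_of_dvd (Fact.out : p.Prime).pos h1)

/-- For `p` odd, a `p`-group with an elementary abelian subgroup of order at least `p^4` has a
normal one of order `p^4`. -/
theorem exists_normal_elementary_fourth (hp2 : p ≠ 2) (hP : IsPGroup p P) {A₀ : Subgroup P}
    (hA₀ : Cfsg.IsElementaryAbelian p A₀) (hA₀c : p ^ 4 ≤ Nat.card A₀) :
    ∃ A : Subgroup P, A.Normal ∧ Cfsg.IsElementaryAbelian p A ∧ Nat.card A = p ^ 4 := by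
  have hp : p.Prime := Fact.out
  haveI : Group.IsNilpotent P := hP.isNilpotent
  suffices key : ∃ A : Subgroup P, A.Normal ∧ Cfsg.IsElementaryAbelian p A ∧ p ^ 4 ≤ Nat.card A by
    obtain ⟨A, hAn, hAel, hAc⟩ := key
    obtain ⟨k, hk⟩ := IsPGroup.iff_card.1 (hP.to_subgroup A)
    obtain ⟨K, hK, hKA, hKc⟩ := exists_normal_card_pow hP A (k := 4)
      (hk ▸ pow_dvd_pow p ((Nat.pow_le_pow_iff_right hp.one_lt).1 (hk ▸ hAc)))
    exact ⟨K, hK, ⟨IsMulCommutative.of_comm fun x y => Subtype.ext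
      (congrArg (fun t : A => (t : P)) (hAel.1.1.comm ⟨x, hKA x.2⟩ ⟨y, hKA y.2⟩)),
      fun x hx => hAel.2 x (hKA hx)⟩, hKc⟩
  by_contra hnone
  have hno : ∀ A : Subgroup P, A.Normal → Cfsg.IsElementaryAbelian p A → Nat.card A < p ^ 4 :=
    fun A h1 h2 => lt_of_not_ge fun h => hnone ⟨A, h1, h2, h⟩
  obtain ⟨W₃, hW₃n, hW₃c, hW₃e, hW₃k⟩ := exists_normal_elementary_cube hp2 hP hA₀.1 hA₀.2
    (lt_of_lt_of_le (Nat.pow_lt_pow_right hp.one_lt (by omega)) hA₀c)
  obtain ⟨U, hUn, hUle, hUc⟩ := exists_normal_card_pow hP W₃ (k := 2)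
    (hW₃k ▸ pow_dvd_pow p (by omega))
  have hU : Cfsg.IsElementaryAbelian p U :=
    ⟨IsMulCommutative.of_comm fun x y => Subtype.ext
      (congrArg (fun t : W₃ => (t : P)) (hW₃c.1.comm ⟨x, hUle x.2⟩ ⟨y, hUle y.2⟩)),
      fun x hx => hW₃e x (hUle hx)⟩
  have hidx := index_centralizer_dvd_of_card_sq hP U hU.1 hUc
  set M := Subgroup.centralizer (U : Set P) with hM
  haveI : M.Normal := Subgroup.normal_centralizer
  have hUcomm : ∀ u ∈ U, ∀ v ∈ U, u * v = v * u := fun u hu v hv =>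
    congrArg Subtype.val (hU.1.1.comm ⟨u, hu⟩ ⟨v, hv⟩)
  have hUM : U ≤ M := fun u hu => Subgroup.mem_centralizer_iff.2 fun v hv => hUcomm v hv u hu
  have hMU : ∀ {u m : P}, u ∈ U → m ∈ M → u * m = m * u := fun hu hm =>
    Subgroup.mem_centralizer_iff.1 hm _ hu
  obtain ⟨W, hUW, hW⟩ := exists_maximal_normalAbelianExp
    (⟨inferInstance, hU.1, hU.2⟩ : NormalAbelianExp p U)
  obtain ⟨hWn, hWc, hWe⟩ := hW.1
  have hWcomm : ∀ u ∈ W, ∀ v ∈ W, u * v = v * u := fun u hu v hv =>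
    congrArg Subtype.val (hWc.1.comm ⟨u, hu⟩ ⟨v, hv⟩)
  have hWM : W ≤ M := fun w hw => Subgroup.mem_centralizer_iff.2 fun v hv =>
    hWcomm v (hUW hv) w hw
  have hAlp : ∀ x : P, (∀ w ∈ W, w * x = x * w) → x ^ p = 1 → x ∈ W := fun x hx hxp =>
    mem_of_maximal_normalAbelianExp (hp.odd_of_ne_two hp2) hW
      (Subgroup.mem_centralizer_iff.2 hx) hxp
  have hWlt : Nat.card W < p ^ 4 := hno W hWn ⟨hWc, hWe⟩
  let InFam : Subgroup P → Prop := fun A =>
    Cfsg.IsElementaryAbelian p A ∧ U ≤ A ∧ A ≤ M ∧ p ^ 4 ≤ Nat.card A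
  -- a member of the family
  have hne : ∃ A, InFam A := by
    by_cases hle : A₀ ≤ M
    · exact ⟨A₀ ⊔ U, elementary_sup hA₀ hU fun a ha u hu => (hMU hu (hle ha)).symm, le_sup_right,
        sup_le hle hUM, hA₀c.trans (Subgroup.card_le_of_le le_sup_left)⟩
    · set D := A₀ ⊓ M
      have hD : Cfsg.IsElementaryAbelian p D :=
        ⟨IsMulCommutative.of_comm fun x y => Subtype.ext
          (congrArg (fun t : A₀ => (t : P)) (hA₀.1.1.comm ⟨x, x.2.1⟩ ⟨y, y.2.1⟩)),
          fun x hx => hA₀.2 x hx.1⟩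
      refine ⟨D ⊔ U, elementary_sup hD hU fun a ha u hu => (hMU hu ha.2).symm, le_sup_right,
        sup_le inf_le_right hUM, ?_⟩
      have hDc : p ^ 3 ≤ Nat.card D := by
        have := card_le_mul_inf M A₀ hidx
        change Nat.card A₀ ≤ p * Nat.card D at this
        have h' : p * p ^ 3 ≤ p * Nat.card D := by
          rw [← pow_succ']
          exact hA₀c.trans this
        exact Nat.le_of_mul_le_mul_left h' hp.pos
      have hlt : D < D ⊔ U := lt_of_le_of_ne le_sup_left fun h => hle fun a ha =>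
        Subgroup.mem_centralizer_iff.2 fun u hu => congrArg Subtype.val
          (hA₀.1.1.comm ⟨u, ((h.symm ▸ le_sup_right : U ≤ D) hu).1⟩ ⟨a, ha⟩)
      have hlt' : Nat.card D < Nat.card (D ⊔ U : Subgroup P) := by
        by_contra hge
        exact hlt.ne (Subgroup.eq_of_le_of_card_ge hlt.le (not_lt.1 hge))
      obtain ⟨k, hk⟩ := exists_card_pow hP (D ⊔ U)
      rw [hk] at hlt' ⊢
      exact Nat.pow_le_pow_right hp.pos
        ((Nat.pow_lt_pow_iff_right hp.one_lt).1 (lt_of_le_of_lt hDc hlt') : 3 < k)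
  obtain ⟨A, hA⟩ := hne
  -- no member centralises `W`, so `U < W`
  have hnoW : ∀ B, InFam B → ¬ ∀ b ∈ B, ∀ w ∈ W, w * b = b * w := fun B hB h => by
    have := Subgroup.card_le_of_le (fun b hb => hAlp b (h b hb) (hB.1.2 b hb) : B ≤ W)
    have := hB.2.2.2
    omega
  have hUWne : U ≠ W := fun h => hnoW A hA fun b hb w hw => hMU (h.symm ▸ hw) (hA.2.2.1 hb)
  have hWc3 : Nat.card W = p ^ 3 := by
    obtain ⟨k, hk⟩ := exists_card_pow hP W
    have hlt : Nat.card U < Nat.card W := by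
      by_contra hge
      exact hUWne (Subgroup.eq_of_le_of_card_ge hUW (not_lt.1 hge))
    rw [hk, hUc] at hlt
    rw [hk] at hWlt ⊢
    have h1 := (Nat.pow_lt_pow_iff_right hp.one_lt).1 hlt
    have h2 := (Nat.pow_lt_pow_iff_right hp.one_lt).1 hWlt
    rw [show k = 3 by omega]
  -- `[P, W] ≤ U`
  have hcW : ∀ g : P, ∀ w ∈ W, ⁅g, w⁆ ∈ U := by
    intro g w hw
    let π := QuotientGroup.mk' U
    haveI : (W.map π).Normal := hWn.map π (QuotientGroup.mk'_surjective U)
    have hmap : Nat.card (W.map π) = p := by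
      have h1 := Subgroup.relIndex_ker (K := W) π
      rw [QuotientGroup.ker_mk'] at h1
      have h2 := Subgroup.card_mul_index (U.subgroupOf W)
      rw [Nat.card_congr (Subgroup.subgroupOfEquivOfLe hUW).toEquiv, hUc, hWc3] at h2
      rw [← h1]
      change (U.subgroupOf W).index = p
      rw [pow_succ _ 2] at h2
      exact Nat.eq_of_mul_eq_mul_left (pow_pos hp.pos 2) h2
    have hcen := le_center_of_card_eq (hP.to_quotient U) _ hmap
    rw [← QuotientGroup.eq_one_iff]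
    change π ⁅g, w⁆ = 1
    rw [map_commutatorElement, commutatorElement_eq_one_iff_mul_comm]
    exact Subgroup.mem_center_iff.1 (hcen ⟨w, hw, rfl⟩) (π g)
  -- any element of `W \ U` generates `W` over `U`
  have hgen : ∀ d ∈ W, d ∉ U → ∀ x ∈ M, Commute x d → ∀ w ∈ W, w * x = x * w := by
    intro d hd hdU x hx hxd
    have hle : W ≤ Subgroup.centralizer {x} := by
      have hsup : U ⊔ Subgroup.zpowers d = W := by
        have hle' : U ⊔ Subgroup.zpowers d ≤ W := sup_le hUW (Subgroup.zpowers_le.2 hd)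
        refine Subgroup.eq_of_le_of_card_ge hle' ?_
        obtain ⟨k, hk⟩ := exists_card_pow hP (U ⊔ Subgroup.zpowers d)
        have hlt : Nat.card U < Nat.card (U ⊔ Subgroup.zpowers d : Subgroup P) := by
          by_contra hge
          have := Subgroup.eq_of_le_of_card_ge (le_sup_left : U ≤ U ⊔ Subgroup.zpowers d)
            (not_lt.1 hge)
          exact hdU (this.ge (le_sup_right (a := U) (Subgroup.mem_zpowers d)))
        rw [hk, hUc] at hlt
        rw [hk, hWc3]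
        exact Nat.pow_le_pow_right hp.pos ((Nat.pow_lt_pow_iff_right hp.one_lt).1 hlt : 2 < k)
      rw [← hsup]
      exact sup_le (fun u hu => Subgroup.mem_centralizer_singleton_iff.2 (hMU hu hx))
        (Subgroup.zpowers_le.2 (Subgroup.mem_centralizer_singleton_iff.2 hxd.eq.symm))
    exact fun w hw => Subgroup.mem_centralizer_singleton_iff.1 (hle hw)
  -- the homomorphism `m ↦ [m, d]` on `M`
  have hψ : ∀ d ∈ W, ∃ ψ : M →* U, ∀ m : M, (ψ m : P) = ⁅(m : P), d⁆ := fun d hd =>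
    ⟨{ toFun := fun m => ⟨⁅(m : P), d⁆, hcW _ d hd⟩
       map_one' := Subtype.ext (commutatorElement_one_left d)
       map_mul' := fun m n => Subtype.ext (by
        change ⁅(m : P) * n, d⁆ = ⁅(m : P), d⁆ * ⁅(n : P), d⁆
        have hn := hcW (n : P) d hd
        calc ⁅(m : P) * n, d⁆ = (m : P) * ⁅(n : P), d⁆ * (m : P)⁻¹ * ⁅(m : P), d⁆ := by
              simp only [commutatorElement_def]; group
          _ = ⁅(n : P), d⁆ * ⁅(m : P), d⁆ := by
              rw [← hMU hn m.2, mul_inv_cancel_right]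
          _ = ⁅(m : P), d⁆ * ⁅(n : P), d⁆ := hUcomm _ hn _ (hcW _ d hd)) }, fun m => rfl⟩
  -- the kernel on a member of the family is inside `U`
  have hkerB : ∀ B, InFam B → ∀ d ∈ W, d ∉ U → ∀ b ∈ B, ⁅b, d⁆ = 1 → b ∈ U := by
    intro B hB d hd hdU b hb hbd
    have hbW : b ∈ W := hAlp b
      (hgen d hd hdU b (hB.2.2.1 hb) (commutatorElement_eq_one_iff_mul_comm.1 hbd)) (hB.1.2 b hb)
    by_contra hbU
    refine hnoW B hB fun c hc w hw =>
      hgen b hbW hbU c (hB.2.2.1 hc) ?_ w hw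
    exact congrArg Subtype.val (hB.1.1.1.comm ⟨c, hc⟩ ⟨b, hb⟩)
  obtain ⟨w₀, hw₀, hw₀U⟩ := SetLike.exists_of_lt (lt_of_le_of_ne hUW hUWne)
  -- members of the family map onto `U`
  have hsurj : ∀ B, InFam B → ∀ d ∈ W, d ∉ U → ∀ V : Subgroup P,
      (∀ b ∈ B, ⁅b, d⁆ ∈ V) → p ^ 2 ≤ Nat.card V := by
    intro B hB d hd hdU V hV
    obtain ⟨ψ, hψd⟩ := hψ d hd
    set f := ψ.comp (Subgroup.inclusion hB.2.2.1) with hf
    have hfv : ∀ b : B, (f b : P) = ⁅(b : P), d⁆ := fun b => hψd _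
    have h1 : Nat.card B = Nat.card f.ker * Nat.card f.range := by
      rw [← Subgroup.card_mul_index f.ker, Subgroup.index_ker]
    have h2 : Nat.card f.ker ≤ Nat.card U :=
      Nat.card_le_card_of_injective (fun b => (⟨((b : B) : P), hkerB B hB d hd hdU _ (b : B).2
          (by rw [← hfv]; exact congrArg Subtype.val b.2)⟩ : U))
        fun a b h => Subtype.ext (Subtype.ext (congrArg (fun t : U => (t : P)) h))
    have h3 : Nat.card f.range ≤ Nat.card V :=
      Nat.card_le_card_of_injective (fun u => (⟨((u : U) : P), by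
          obtain ⟨b, hb⟩ := u.2
          rw [← hb, hfv]
          exact hV _ b.2⟩ : V))
        fun a b h => Subtype.ext (Subtype.ext (congrArg (fun t : V => (t : P)) h))
    have h4 := hB.2.2.2
    rw [h1] at h4
    rw [hUc] at h2
    have h5 : p ^ 2 * p ^ 2 ≤ p ^ 2 * Nat.card V := by
      rw [← pow_add]
      exact h4.trans (Nat.mul_le_mul h2 h3)
    exact Nat.le_of_mul_le_mul_left h5 (pow_pos hp.pos 2)
  -- no member is normal
  have hnorm : ¬ A.Normal := fun h => absurd (hno A h hA.1) (not_lt.2 hA.2.2.2)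
  set N := Subgroup.normalizer (A : Set P) with hN
  have hNtop : N < ⊤ := lt_top_iff_ne_top.2 fun h => hnorm (Subgroup.normalizer_eq_top_iff.1 h)
  obtain ⟨g, hg, hgN⟩ := SetLike.exists_of_lt
    ((Group.normalizerCondition_of_isNilpotent (G := P)) N hNtop)
  set B := A.map (MulAut.conj g).toMonoidHom with hBdef
  have hmemB : ∀ x, x ∈ B ↔ g⁻¹ * x * g ∈ A := fun x => by
    rw [hBdef, Subgroup.mem_map_equiv, MulAut.conj_symm_apply]
  have hB : InFam B := by
    refine ⟨⟨?_, ?_⟩, ?_, ?_, ?_⟩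
    · haveI := hA.1.1
      infer_instance
    · intro x hx
      have := hA.1.2 _ ((hmemB x).1 hx)
      have h' : (g⁻¹ * x * g) ^ p = g⁻¹ * x ^ p * g := by
        simpa using conj_pow (a := g⁻¹) (b := x) (i := p)
      rw [h'] at this
      calc x ^ p = g * (g⁻¹ * x ^ p * g) * g⁻¹ := by group
        _ = 1 := by rw [this]; group
    · intro u hu
      exact (hmemB u).2 (hA.2.1 (by
        simpa using Subgroup.Normal.conj_mem inferInstance u hu g⁻¹))
    · intro x hx
      have := Subgroup.Normal.conj_mem (inferInstance : M.Normal) _ (hA.2.2.1 ((hmemB x).1 hx)) g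
      have h' : g * (g⁻¹ * x * g) * g⁻¹ = x := by group
      rwa [h'] at this
    · rw [hBdef, Subgroup.card_map_of_injective (MulAut.conj g).injective]
      exact hA.2.2.2
  -- `A` and `B` normalise one another
  have hAN : A ≤ N := Subgroup.le_normalizer
  have hBA : ∀ b ∈ B, ∀ a ∈ A, b * a * b⁻¹ ∈ A := by
    intro b hb a ha
    have hbN : b ∈ N := by
      have := ((Subgroup.mem_normalizer_iff.1 hg) _).1 (hAN ((hmemB b).1 hb))
      have h' : g * (g⁻¹ * b * g) * g⁻¹ = b := by group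
      rwa [h'] at this
    exact ((Subgroup.mem_normalizer_iff.1 hbN) a).1 ha
  have hAB : ∀ a ∈ A, ∀ b ∈ B, a * b * a⁻¹ ∈ B := by
    intro a ha b hb
    have hgaN : g⁻¹ * a * g ∈ N := by
      refine ((Subgroup.mem_normalizer_iff.1 hg) _).2 ?_
      have h' : g * (g⁻¹ * a * g) * g⁻¹ = a := by group
      rw [h']
      exact hAN ha
    refine (hmemB _).2 ?_
    have := ((Subgroup.mem_normalizer_iff.1 hgaN) _).1 ((hmemB b).1 hb)
    have h' : g⁻¹ * a * g * (g⁻¹ * b * g) * (g⁻¹ * a * g)⁻¹ = g⁻¹ * (a * b * a⁻¹) * g := by group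
    rwa [h'] at this
  have hcomU : ∀ a ∈ A, ∀ b ∈ B, ⁅a, b⁆ ∈ U := by
    intro a ha b hb
    obtain ⟨ψ, hψd⟩ := hψ w₀ hw₀
    have hcA : ⁅a, b⁆ ∈ A := by
      rw [commutatorElement_def, show a * b * a⁻¹ * b⁻¹ = a * (b * a⁻¹ * b⁻¹) by group]
      exact mul_mem ha (hBA b hb _ (inv_mem ha))
    refine hkerB A hA w₀ hw₀ hw₀U _ hcA ?_
    have h1 : ψ ⁅(⟨a, hA.2.2.1 ha⟩ : M), ⟨b, hB.2.2.1 hb⟩⁆ = 1 := by
      rw [map_commutatorElement, commutatorElement_eq_one_iff_mul_comm]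
      exact hU.1.1.comm _ _
    have h2 := congrArg Subtype.val h1
    rw [hψd] at h2
    exact h2
  -- decomposition of the elements of `B`
  have hdec : ∀ b ∈ B, ∃ a ∈ A, ∃ d ∈ W, b = a * d := by
    intro b hb
    obtain ⟨ψ, hψd⟩ := hψ w₀ hw₀
    have hfull : (A.subgroupOf M).map ψ = ⊤ := by
      refine Subgroup.eq_top_of_le_card _ ?_
      rw [hUc]
      refine le_trans (hsurj A hA w₀ hw₀ hw₀U (((A.subgroupOf M).map ψ).map U.subtype) ?_) ?_
      · intro a ha
        exact ⟨ψ ⟨a, hA.2.2.1 ha⟩, ⟨_, ha, rfl⟩, hψd _⟩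
      · rw [Subgroup.card_map_of_injective U.subtype_injective]
    obtain ⟨a, ha, hab⟩ := hfull.ge (Subgroup.mem_top (ψ ⟨b, hB.2.2.1 hb⟩))
    have ha' : (a : P) ∈ A := ha
    refine ⟨a, ha', (a : P)⁻¹ * b, ?_, by group⟩
    have hc := hcomU _ (inv_mem ha') _ hb
    have h3 : ((a : P)⁻¹ * b) ^ p = 1 := by
      rw [mul_pow_of_odd (hMU hc (inv_mem a.2)) (hMU hc (hB.2.2.1 hb)) (hp.odd_of_ne_two hp2)
        (hU.2 _ hc), inv_pow, hA.1.2 _ ha', hB.1.2 b hb]
      simp
    refine hAlp _ (hgen w₀ hw₀ hw₀U _ (mul_mem (inv_mem a.2) (hB.2.2.1 hb)) ?_) h3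
    have h1 : ψ (a⁻¹ * ⟨b, hB.2.2.1 hb⟩) = 1 := by rw [map_mul, map_inv, hab, inv_mul_cancel]
    have h2 := congrArg Subtype.val h1
    rw [hψd] at h2
    exact commutatorElement_eq_one_iff_mul_comm.1 h2
  have hBA' : ¬ B ≤ A := by
    intro hle
    have heq : B = A := Subgroup.eq_of_le_of_card_ge hle (le_of_eq (by
      rw [hBdef, Subgroup.card_map_of_injective (MulAut.conj g).injective]))
    refine hgN (Subgroup.mem_normalizer_iff.2 fun x => ?_)
    have h := hmemB (g * x * g⁻¹)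
    rw [heq, show g⁻¹ * (g * x * g⁻¹) * g = x by group] at h
    exact h.symm
  obtain ⟨b, hb, hbA⟩ := SetLike.not_le_iff_exists.1 hBA'
  obtain ⟨a, ha, d, hd, rfl⟩ := hdec b hb
  have hdU : d ∉ U := fun h => hbA (mul_mem ha (hA.2.1 h))
  have haM := hA.2.2.1 ha
  -- `x ↦ [a, x]` on `W` has image of order at most `p`
  let χ : W →* U :=
    { toFun := fun x => ⟨⁅a, (x : P)⁆, hcW a _ x.2⟩
      map_one' := Subtype.ext (commutatorElement_one_right a)
      map_mul' := fun x y => Subtype.ext (by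
        change ⁅a, (x : P) * y⁆ = ⁅a, (x : P)⁆ * ⁅a, (y : P)⁆
        calc ⁅a, (x : P) * y⁆ = ⁅a, (x : P)⁆ * ((x : P) * ⁅a, (y : P)⁆ * (x : P)⁻¹) := by
              simp only [commutatorElement_def]; group
          _ = ⁅a, (x : P)⁆ * ⁅a, (y : P)⁆ := by
              rw [← hMU (hcW a _ y.2) (hWM x.2), mul_inv_cancel_right]) }
  have hχ : ∀ x : W, (χ x : P) = ⁅a, (x : P)⁆ := fun x => rfl
  have hχc : Nat.card (χ.range.map U.subtype) ≤ p := by
    rw [Subgroup.card_map_of_injective U.subtype_injective, ← Subgroup.index_ker]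
    have hle : U.subgroupOf W ≤ χ.ker := fun x hx => Subtype.ext
      (commutatorElement_eq_one_iff_mul_comm.2 (hMU hx haM).symm)
    have h2 := Subgroup.card_mul_index (U.subgroupOf W)
    rw [Nat.card_congr (Subgroup.subgroupOfEquivOfLe hUW).toEquiv, hUc, hWc3] at h2
    rw [pow_succ _ 2] at h2
    exact Nat.le_of_dvd hp.pos ((Subgroup.index_dvd_of_le hle).trans
      (dvd_of_eq (Nat.eq_of_mul_eq_mul_left (pow_pos hp.pos 2) h2)))
  refine absurd (hsurj B hB d hd hdU (χ.range.map U.subtype) ?_)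
    (not_le.2 (lt_of_le_of_lt hχc (by rw [sq]; exact lt_mul_self hp.one_lt)))
  intro b' hb'
  obtain ⟨a', ha', d', hd', rfl⟩ := hdec b' hb'
  refine ⟨χ ⟨d', hd'⟩, ⟨_, rfl⟩, ?_⟩
  change ⁅a, d'⁆ = ⁅a' * d', d⁆
  -- `b' = a' d'` commutes with `b = a d`
  have hcomm : a' * d' * (a * d) = a * d * (a' * d') :=
    congrArg Subtype.val (hB.1.1.1.comm ⟨_, hb'⟩ ⟨_, hb⟩)
  have haa : a * a' = a' * a := congrArg Subtype.val (hA.1.1.1.comm ⟨a, ha⟩ ⟨a', ha'⟩)
  have hu1 := hcW (a' * d') d hd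
  have hu2 := hcW a d' hd'
  have hb'M := hB.2.2.1 hb'
  have e1 : ⁅a, a' * d'⁆ = ⁅a, d'⁆ := by
    calc ⁅a, a' * d'⁆ = ⁅a, a'⁆ * (a' * ⁅a, d'⁆ * a'⁻¹) := by
          simp only [commutatorElement_def]; group
      _ = ⁅a, d'⁆ := by
          rw [commutatorElement_eq_one_iff_mul_comm.2 haa, one_mul,
            ← hMU hu2 (hA.2.2.1 ha'), mul_inv_cancel_right]
  have e2 : ⁅a' * d', a⁆ * (a * ⁅a' * d', d⁆ * a⁻¹) = 1 := by
    have h1 : ⁅a' * d', a * d⁆ = 1 := commutatorElement_eq_one_iff_mul_comm.2 hcomm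
    rw [← h1]
    simp only [commutatorElement_def]; group
  rw [← hMU hu1 haM, mul_inv_cancel_right, ← commutatorElement_inv, inv_mul_eq_one] at e2
  rw [← e1, e2]

end CfsgLib.PGroup.RankFour
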