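import Cfsg.Prelude.Def_Balance
import Cfsg.Prelude.Def_CaseTheorems
import Cfsg.Agent.PGroup.RankThree
import Cfsg.Agent.PGroup.NormalRankFour
import Mathlib.GroupTheory.Nilpotent

/-!
A 3-group of 3-rank at least 4 is 2-connected.

Key point: an element of order 3 has at least 9 fixed points on a normal elementary abelian
subgroup of order 81.
-/

set_option autoImplicit false

open scoped commutatorElement

namespace CfsgLib.ThreeRankFour

variable {P : Type*} [Group P] [Finite P]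

/-- A group with an endomorphism of cube trivial and kernel of order at most 3 has order at most 27. -/
theorem card_le_of_cube {W : Type*} [Group W] [Finite W] (f : W →* W) (hk : Nat.card f.ker ≤ 3)
    (h3 : ∀ x, f (f (f x)) = 1) : Nat.card W ≤ 27 := by
  have h1 : Nat.card W = Nat.card f.ker * Nat.card f.range := by
    rw [← Subgroup.card_mul_index f.ker, Subgroup.index_ker]
  set g : f.range →* W := f.comp f.range.subtype with hg
  have h2 : Nat.card f.range = Nat.card g.ker * Nat.card g.range := by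
    rw [← Subgroup.card_mul_index g.ker, Subgroup.index_ker]
  have h4 : Nat.card g.ker ≤ Nat.card f.ker :=
    Nat.card_le_card_of_injective (fun x => (⟨((x : f.range) : W), x.2⟩ : f.ker))
      fun a b h => Subtype.ext (Subtype.ext (congrArg (fun t : f.ker => (t : W)) h))
  have h5 : g.range ≤ f.ker := by
    rintro _ ⟨⟨_, x, rfl⟩, rfl⟩
    exact h3 x
  have h6 := Subgroup.card_le_of_le h5
  rw [h1, h2]
  calc Nat.card f.ker * (Nat.card g.ker * Nat.card g.range) ≤ 3 * (3 * 3) :=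
        Nat.mul_le_mul hk (Nat.mul_le_mul (h4.trans hk) (h6.trans hk))
    _ = 27 := rfl

/-- A normal elementary abelian 3-subgroup meeting the centraliser of an element of order 3 in
at most 3 elements has order at most 27. -/
theorem normal_card_le {e : P} (he : e ^ 3 = 1) (W : Subgroup P) [W.Normal]
    (hWc : IsMulCommutative W) (hWe : ∀ w ∈ W, w ^ 3 = 1) (Z₀ : Subgroup P)
    (hZ : Nat.card Z₀ ≤ 3) (hC : ∀ w ∈ W, Commute e w → w ∈ Z₀) : Nat.card W ≤ 27 := by
  letI : CommGroup W := { (inferInstance : Group W) with mul_comm := hWc.1.comm }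
  let σ : W →* W := (MulAut.conjNormal e).toMonoidHom
  let φ : W →* W := σ / MonoidHom.id W
  refine card_le_of_cube φ ?_ fun x => ?_
  · refine le_trans (Nat.card_le_card_of_injective
      (fun w => (⟨((w : W) : P), ?_⟩ : Z₀))
      fun a b h => Subtype.ext (Subtype.ext (congrArg (fun t : Z₀ => (t : P)) h))) hZ
    refine hC _ (w : W).2 ?_
    have h := div_eq_one.1 (w.2 : σ (w : W) / (w : W) = 1)
    have h' : e * ((w : W) : P) * e⁻¹ = (w : W) := by
      have := congrArg (fun t : W => (t : P)) h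
      simpa [σ] using this
    exact mul_inv_eq_iff_eq_mul.1 h'
  · have hφ : ∀ y, φ y = σ y / y := fun y => rfl
    have h3 : σ (σ (σ x)) = x := by
      apply Subtype.ext
      simp only [σ, MulEquiv.coe_toMonoidHom, MulAut.conjNormal_apply]
      calc e * (e * (e * (x : P) * e⁻¹) * e⁻¹) * e⁻¹ = e ^ 3 * (x : P) * (e ^ 3)⁻¹ := by
            simp only [pow_succ, pow_zero, one_mul]; group
        _ = x := by simp [he]
    have hp : ∀ y : W, y ^ 3 = 1 := fun y => Subtype.ext (by simpa using hWe _ y.2)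
    simp only [hφ, map_div, h3]
    have key : ∀ a b c : W, a / c / (c / b) / (c / b / (b / a)) = b ^ 3 / c ^ 3 := by
      intro a b c
      apply Additive.ofMul.injective
      simp only [ofMul_div, ofMul_pow]
      abel
    rw [key, hp, hp, div_one]

theorem elementary_sup {A B : Subgroup P} (hA : Cfsg.IsElementaryAbelian 3 A)
    (hB : Cfsg.IsElementaryAbelian 3 B) (h : ∀ a ∈ A, ∀ b ∈ B, a * b = b * a) :
    Cfsg.IsElementaryAbelian 3 (A ⊔ B) := by
  have hAB : A ≤ Subgroup.centralizer (B : Set P) := fun a ha =>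
    Subgroup.mem_centralizer_iff.2 fun b hb => (h a ha b hb).symm
  have hAA : A ≤ Subgroup.centralizer (A : Set P) := fun a ha =>
    Subgroup.mem_centralizer_iff.2 fun b hb =>
      congrArg Subtype.val (hA.1.1.comm ⟨b, hb⟩ ⟨a, ha⟩)
  have hBB : B ≤ Subgroup.centralizer (B : Set P) := fun a ha =>
    Subgroup.mem_centralizer_iff.2 fun b hb =>
      congrArg Subtype.val (hB.1.1.comm ⟨b, hb⟩ ⟨a, ha⟩)
  have hA' : A ⊔ B ≤ Subgroup.centralizer (A : Set P) :=
    sup_le hAA (Subgroup.le_centralizer_iff.1 hAB)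
  have hB' : A ⊔ B ≤ Subgroup.centralizer (B : Set P) := sup_le hAB hBB
  have hc : A ⊔ B ≤ Subgroup.centralizer ((A ⊔ B : Subgroup P) : Set P) :=
    Subgroup.le_centralizer_iff.1
      (sup_le (Subgroup.le_centralizer_iff.1 hA') (Subgroup.le_centralizer_iff.1 hB'))
  have hcomm : ∀ x ∈ A ⊔ B, ∀ y ∈ A ⊔ B, x * y = y * x := fun x hx y hy =>
    (Subgroup.mem_centralizer_iff.1 (hc hx) y hy).symm
  refine ⟨IsMulCommutative.of_comm fun x y => Subtype.ext (hcomm _ x.2 _ y.2), ?_⟩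
  let S : Subgroup P :=
    { carrier := {x | x ∈ A ⊔ B ∧ x ^ 3 = 1}
      mul_mem' := fun {x y} hx hy => ⟨mul_mem hx.1 hy.1, by
        rw [Commute.mul_pow (hcomm _ hx.1 _ hy.1), hx.2, hy.2, one_mul]⟩
      one_mem' := ⟨one_mem _, one_pow _⟩
      inv_mem' := fun {x} hx => ⟨inv_mem hx.1, by rw [inv_pow, hx.2, inv_one]⟩ }
  have hS : A ⊔ B ≤ S := sup_le (fun a ha => ⟨le_sup_left (b := B) ha, hA.2 a ha⟩)
    fun b hb => ⟨le_sup_right (a := A) hb, hB.2 b hb⟩
  exact fun x hx => (hS hx).2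

theorem card_le_three_mul_inf (M E : Subgroup P) [M.Normal] (hM : M.index ∣ 3) :
    Nat.card E ≤ 3 * Nat.card (E ⊓ M : Subgroup P) := by
  have h1 : (M.subgroupOf E).index ∣ 3 := (Subgroup.relIndex_dvd_index_of_normal M E).trans hM
  have h2 := (M.subgroupOf E).card_mul_index
  have h3 : Nat.card (M.subgroupOf E) = Nat.card (E ⊓ M : Subgroup P) := by
    rw [← Nat.card_congr
      (Subgroup.subgroupOfEquivOfLe (inf_le_left : E ⊓ M ≤ E)).toEquiv, Subgroup.inf_subgroupOf_left]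
  rw [h3] at h2
  rw [← h2, mul_comm 3]
  exact Nat.mul_le_mul_left _ (Nat.le_of_dvd (by omega) h1)

theorem exists_card_pow_three (hP : IsPGroup 3 P) (H : Subgroup P) :
    ∃ k, Nat.card H = 3 ^ k := by
  haveI : Fact (Nat.Prime 3) := ⟨Nat.prime_three⟩
  exact IsPGroup.iff_card.1 (hP.to_subgroup H)

/-- A 3-group of 3-rank at least 4 is 2-connected. -/
theorem isKConnected (hP : IsPGroup 3 P) (hrk : ¬ Cfsg.PRankLE 3 3 P) :
    Cfsg.IsKConnected 3 2 P := by
  haveI : Fact (Nat.Prime 3) := ⟨Nat.prime_three⟩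
  simp only [Cfsg.PRankLE, not_forall, not_le] at hrk
  obtain ⟨A₀, hA₀c', hA₀e, hA₀n⟩ := hrk
  have hA₀ : Cfsg.IsElementaryAbelian 3 A₀ := ⟨hA₀c', hA₀e⟩
  have hA₀c : 81 ≤ Nat.card A₀ := by
    obtain ⟨k, hk⟩ := exists_card_pow_three hP A₀
    rw [hk] at hA₀n ⊢
    have : 3 < k := (Nat.pow_lt_pow_iff_right (by omega : 1 < 3)).1 hA₀n
    calc 81 = 3 ^ 4 := rfl
      _ ≤ 3 ^ k := Nat.pow_le_pow_right (by omega) this
  obtain ⟨A, hAn, hA, hAc⟩ :=
    CfsgLib.PGroup.RankFour.exists_normal_elementary_fourth (by omega) hP hA₀ hA₀c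
  obtain ⟨U, hUn, hUle, hUc⟩ := CfsgLib.PGroup.exists_normal_card_pow hP A (k := 2)
    (hAc ▸ pow_dvd_pow 3 (by omega))
  have hAcomm : ∀ x ∈ A, ∀ y ∈ A, x * y = y * x := fun x hx y hy =>
    congrArg Subtype.val (hA.1.1.comm ⟨x, hx⟩ ⟨y, hy⟩)
  have hU : Cfsg.IsElementaryAbelian 3 U :=
    ⟨IsMulCommutative.of_comm fun x y => Subtype.ext (hAcomm _ (hUle x.2) _ (hUle y.2)),
      fun x hx => hA.2 x (hUle hx)⟩
  have hUc' : Nat.card U = 9 := hUc
  set M := Subgroup.centralizer (U : Set P) with hM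
  haveI : M.Normal := Subgroup.normal_centralizer
  have hidx : M.index ∣ 3 := CfsgLib.PGroup.index_centralizer_dvd_of_card_sq hP U hU.1 hUc
  intro E E' hE hEc hE' hE'c
  let R := fun A B : Subgroup P => Cfsg.IsElementaryAbelian 3 A ∧ 3 ^ 2 ≤ Nat.card ↥A ∧
    Cfsg.IsElementaryAbelian 3 B ∧ 3 ^ 2 ≤ Nat.card ↥B ∧ ∀ a ∈ A, ∀ b ∈ B, a * b = b * a
  haveI hsymm : Std.Symm R := ⟨fun A B h =>
    ⟨h.2.2.1, h.2.2.2.1, h.1, h.2.1, fun b hb a ha => (h.2.2.2.2 a ha b hb).symm⟩⟩
  suffices key : ∀ E, Cfsg.IsElementaryAbelian 3 E → 3 ^ 2 ≤ Nat.card E →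
      Relation.ReflTransGen R E U by
    exact (key E hE hEc).trans (Std.Symm.symm _ _ (key E' hE' hE'c))
  clear hE hEc hE' hE'c E E'
  have big : ∀ F, Cfsg.IsElementaryAbelian 3 F → 27 ≤ Nat.card F →
      Relation.ReflTransGen R F U := by
    intro F hF hFc
    set D := F ⊓ M
    have hD : Cfsg.IsElementaryAbelian 3 D :=
      ⟨IsMulCommutative.of_comm fun x y => Subtype.ext
        (congrArg (fun t : F => (t : P)) (hF.1.1.comm ⟨x, x.2.1⟩ ⟨y, y.2.1⟩)),
        fun x hx => hF.2 x hx.1⟩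
    have hDc : 3 ^ 2 ≤ Nat.card D := by
      have := card_le_three_mul_inf M F hidx
      change Nat.card F ≤ 3 * Nat.card D at this
      norm_num
      omega
    exact Relation.ReflTransGen.trans
      (.single ⟨hF, by norm_num; omega, hD, hDc, fun a ha b hb =>
        congrArg Subtype.val (hF.1.1.comm ⟨a, ha⟩ ⟨b, hb.1⟩)⟩)
      (.single ⟨hD, hDc, hU, hUc.ge, fun a ha u hu =>
        (Subgroup.mem_centralizer_iff.1 ha.2 u hu).symm⟩)
  intro E hE hEc
  have hEcomm : ∀ x ∈ E, ∀ y ∈ E, x * y = y * x := fun x hx y hy =>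
    congrArg Subtype.val (hE.1.1.comm ⟨x, hx⟩ ⟨y, hy⟩)
  obtain ⟨k, hk⟩ := exists_card_pow_three hP E
  by_cases hk3 : 3 ≤ k
  · exact big E hE (by rw [hk]; exact le_trans (by norm_num) (Nat.pow_le_pow_right (by omega) hk3))
  have hE9 : Nat.card E = 9 := by
    have : 2 ≤ k := (Nat.pow_le_pow_iff_right (by omega : 1 < 3)).1 (hk ▸ hEc)
    obtain rfl : k = 2 := by omega
    exact hk
  by_cases hΩ : ∃ x : P, (∀ a ∈ E, a * x = x * a) ∧ x ^ 3 = 1 ∧ x ∉ E
  · obtain ⟨x, hxc, hx3, hxE⟩ := hΩ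
    have hX : Cfsg.IsElementaryAbelian 3 (Subgroup.zpowers x) :=
      ⟨inferInstance, by
        rintro _ ⟨i, rfl⟩
        change (x ^ i) ^ 3 = 1
        rw [← zpow_natCast, ← zpow_mul, mul_comm, zpow_mul, zpow_natCast, hx3, one_zpow]⟩
    have hcx : ∀ a ∈ E, ∀ b ∈ Subgroup.zpowers x, a * b = b * a := by
      rintro a ha _ ⟨i, rfl⟩
      exact (Commute.zpow_right (hxc a ha : Commute a x) i).eq
    have hF := elementary_sup hE hX hcx
    have hFc : 27 ≤ Nat.card (E ⊔ Subgroup.zpowers x : Subgroup P) := by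
      obtain ⟨l, hl⟩ := exists_card_pow_three hP (E ⊔ Subgroup.zpowers x)
      have hlt : Nat.card E < Nat.card (E ⊔ Subgroup.zpowers x : Subgroup P) := by
        by_contra hge
        exact hxE ((Subgroup.eq_of_le_of_card_ge (le_sup_left : E ≤ E ⊔ Subgroup.zpowers x)
          (not_lt.1 hge)).ge (le_sup_right (a := E) (Subgroup.mem_zpowers x)))
      rw [hE9, hl] at hlt
      rw [hl]
      have h2 : 2 < l := (Nat.pow_lt_pow_iff_right (by omega : 1 < 3)).1 (by norm_num; exact hlt)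
      calc 27 = 3 ^ 3 := rfl
        _ ≤ 3 ^ l := Nat.pow_le_pow_right (by omega) h2
    refine Relation.ReflTransGen.trans (.single ⟨hE, hEc, hF, by norm_num; omega,
      fun a ha b hb => ?_⟩) (big _ hF hFc)
    exact congrArg Subtype.val (hF.1.1.comm ⟨a, le_sup_left (b := Subgroup.zpowers x) ha⟩ ⟨b, hb⟩)
  push_neg at hΩ
  by_cases hEM : E ≤ M
  · exact .single ⟨hE, hEc, hU, hUc.ge, fun a ha u hu =>
      (Subgroup.mem_centralizer_iff.1 (hEM ha) u hu).symm⟩
  exfalso
  obtain ⟨e, heE, heM⟩ := SetLike.not_le_iff_exists.1 hEM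
  set D := E ⊓ M with hD
  have hDc : Nat.card D = 3 := by
    have h1 := card_le_three_mul_inf M E hidx
    change Nat.card E ≤ 3 * Nat.card D at h1
    obtain ⟨l, hl⟩ := exists_card_pow_three hP D
    have hlt : Nat.card D < Nat.card E := by
      by_contra hge
      exact heM ((Subgroup.eq_of_le_of_card_ge (inf_le_left : D ≤ E) (not_lt.1 hge)).ge heE).2
    rw [hE9, hl] at h1 hlt
    rw [hl]
    have : l < 2 := (Nat.pow_lt_pow_iff_right (by omega : 1 < 3)).1 (by norm_num; exact hlt)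
    interval_cases l <;> omega
  haveI : Nontrivial P := ⟨⟨e, 1, fun h => heM (h ▸ one_mem M)⟩⟩
  haveI : Nontrivial (Subgroup.center P) := hP.center_nontrivial
  obtain ⟨j, hj⟩ := IsPGroup.iff_card.1 (hP.to_subgroup (Subgroup.center P))
  have hj0 : j ≠ 0 := by
    rintro rfl
    rw [pow_zero] at hj
    exact absurd hj (Finite.one_lt_card).ne'
  obtain ⟨z, hz⟩ := exists_prime_orderOf_dvd_card' (G := Subgroup.center P) 3
    (hj ▸ dvd_pow_self 3 hj0)
  have hzc := Subgroup.mem_center_iff.1 z.2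
  have hz3 : (z : P) ^ 3 = 1 := by
    rw [← Subgroup.coe_pow, ← hz, pow_orderOf_eq_one, Subgroup.coe_one]
  have hzE : (z : P) ∈ E := hΩ _ (fun a _ => hzc a) hz3
  have hzM : (z : P) ∈ M := Subgroup.mem_centralizer_iff.2 fun u _ => hzc u
  have hDZ : D ≤ Subgroup.center P := by
    have hle : Subgroup.zpowers (z : P) ≤ D := Subgroup.zpowers_le.2 ⟨hzE, hzM⟩
    have : Subgroup.zpowers (z : P) = D := Subgroup.eq_of_le_of_card_ge hle (by
      rw [hDc, Nat.card_zpowers, Subgroup.orderOf_coe, hz])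
    rw [← this]
    exact Subgroup.zpowers_le.2 z.2
  have hEgen : D ⊔ Subgroup.zpowers e = E := by
    have hle : D ⊔ Subgroup.zpowers e ≤ E := sup_le inf_le_left (Subgroup.zpowers_le.2 heE)
    refine Subgroup.eq_of_le_of_card_ge hle ?_
    obtain ⟨l, hl⟩ := exists_card_pow_three hP (D ⊔ Subgroup.zpowers e)
    have hlt : Nat.card D < Nat.card (D ⊔ Subgroup.zpowers e : Subgroup P) := by
      by_contra hge
      exact heM ((Subgroup.eq_of_le_of_card_ge (le_sup_left : D ≤ D ⊔ Subgroup.zpowers e)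
        (not_lt.1 hge)).ge (le_sup_right (a := D) (Subgroup.mem_zpowers e))).2
    rw [hDc, hl] at hlt
    rw [hE9, hl]
    have : 1 < l := (Nat.pow_lt_pow_iff_right (by omega : 1 < 3)).1 (by norm_num; exact hlt)
    calc 9 = 3 ^ 2 := rfl
      _ ≤ 3 ^ l := Nat.pow_le_pow_right (by omega) this
  have hAM : A ≤ M := fun x hx =>
    Subgroup.mem_centralizer_iff.2 fun u hu => hAcomm u (hUle hu) x hx
  have hle27 := normal_card_le (hE.2 e heE) A hA.1 hA.2 D hDc.le fun x hxA hex => ?_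
  · rw [hAc] at hle27
    norm_num at hle27
  have hxM := hAM hxA
  have hx3 := hA.2 x hxA
  refine ⟨hΩ x (fun a ha => ?_) hx3, hxM⟩
  have hle : E ≤ Subgroup.centralizer {x} := by
    rw [← hEgen]
    exact sup_le (fun d hd => Subgroup.mem_centralizer_singleton_iff.2
        (Subgroup.mem_center_iff.1 (hDZ hd) x).symm)
      (Subgroup.zpowers_le.2 (Subgroup.mem_centralizer_singleton_iff.2 hex.eq))
  exact Subgroup.mem_centralizer_singleton_iff.1 (hle ha)

end CfsgLib.ThreeRankFour
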